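/-
Multiplicities for functions given by `Fin.cons`.
-/
import Mathlib
import Cfsg.Prelude.Def_GeometricClasses
import Cfsg.Agent.H953.Cent
import Cfsg.Agent.H953.Basic
import Cfsg.Agent.H953.SubConj
set_option linter.all false

-- part: H953/Diag
section
set_option autoImplicit false

namespace Cfsg.Agent.H953

open Polynomial

universe u

variable {F : Type u} [Field F]

open Classical in
/-- Number of indices with value `β`. -/
noncomputable def mult {ι : Type*} [Fintype ι] (a : ι → F) (β : F) : ℕ :=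
  (Finset.univ.filter fun i => a i = β).card

theorem mult_eq_count {ι : Type*} [Fintype ι] (a : ι → F) (β : F) [DecidableEq F] :
    mult a β = Multiset.count β (∏ i, (X - C (a i))).roots := by
  have h1 : (∏ i, (X - C (a i))) = (Multiset.map (fun b => X - C b) (Finset.univ.val.map a)).prod := by
    rw [Multiset.map_map]
    rfl
  rw [h1, roots_multiset_prod_X_sub_C, Multiset.count_map]
  unfold mult
  rw [Finset.card_def, Finset.filter_val]
  congr 1
  have h2 : (fun i => a i = β) = (fun i => β = a i) := by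
    funext i; exact propext eq_comm
  simp only [h2]

theorem mult_eq_of_prod {ι : Type*} [Fintype ι] {a b : ι → F} (h : ∏ i, (X - C (a i)) = ∏ i, (X - C (b i))) (β : F) :
    mult a β = mult b β := by
  classical
  rw [mult_eq_count, mult_eq_count, h]

theorem charpoly_of_conj {ι : Type*} [Fintype ι] [DecidableEq ι] {x y : Matrix ι ι F} (P : GL ι F)
    (h : x * (P : Matrix ι ι F) = (P : Matrix ι ι F) * y) : x.charpoly = y.charpoly := by
  have : x = (P : Matrix ι ι F) * y * ((P⁻¹ : GL ι F) : Matrix ι ι F) := by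
    rw [← h, mul_assoc, ← Units.val_mul, mul_inv_cancel, Units.val_one, mul_one]
  rw [this, Matrix.coe_units_inv]
  exact Matrix.charpoly_units_conj P y

omit [Field F] in
theorem mult_congr {ι : Type*} [Fintype ι] {a b : ι → F} {β γ : F} (h : ∀ i, a i = β ↔ b i = γ) :
    mult a β = mult b γ := by
  unfold mult
  congr 1
  ext i
  simp [h i]

omit [Field F] in
theorem mult_pos {ι : Type*} [Fintype ι] {a : ι → F} {β : F} (h : 0 < mult a β) : ∃ i, a i = β := by
  classical
  unfold mult at h
  obtain ⟨i, hi⟩ := Finset.card_pos.mp h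
  exact ⟨i, (Finset.mem_filter.mp hi).2⟩

/-- Multiplicities of a diagonal matrix conjugate into the subfield group. -/
theorem mult_subfield [Fintype F] (p : ℕ) [Fact p.Prime] [CharP F p] {n : ℕ} (F₀ : Subfield F) {q₀ : ℕ}
    (hF₀ : Nat.card F₀ = q₀) (a : Fin n → F)
    (x P : Matrix.SpecialLinearGroup (Fin n) F) (hx : (x : Matrix (Fin n) (Fin n) F) = Matrix.diagonal a)
    (h : P⁻¹ * x * P ∈ (Cfsg.Geo.subfieldSubgroup F₀ 1).comap
      (Matrix.SpecialLinearGroup.toGL : Matrix.SpecialLinearGroup (Fin n) F →* GL (Fin n) F)) :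
    ∃ lam : F, lam ≠ 0 ∧ ∀ β, mult a β = mult a ((lam * β) ^ q₀ / lam) := by
  obtain ⟨y, c, hc, hyc⟩ := eq_of_mem_subfield F₀ x P h
  have : ExpChar F p := ExpChar.prime Fact.out
  have : Fintype F₀ := Fintype.ofFinite F₀
  have : CharP F₀ p := by
    refine ⟨fun a => ?_⟩
    rw [← CharP.cast_eq_zero_iff F p a]
    constructor
    · intro h; have := congrArg Subtype.val h; simpa using this
    · intro h; apply Subtype.ext; simpa using h
  obtain ⟨f, hf⟩ : ∃ f : ℕ, q₀ = p ^ f := by
    obtain ⟨f, -, hf⟩ := FiniteField.card F₀ p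
    exact ⟨f, by rw [← hF₀, Nat.card_eq_fintype_card, hf]⟩
  -- charpoly of c⁻¹ x
  have h1 : Matrix.diagonal (fun i => c⁻¹ * a i) * (P : Matrix (Fin n) (Fin n) F) =
      (P : Matrix (Fin n) (Fin n) F) * ((y : Matrix (Fin n) (Fin n) F₀).map F₀.subtype) := by
    have h2 : Matrix.diagonal (fun i => c⁻¹ * a i) = c⁻¹ • (x : Matrix (Fin n) (Fin n) F) := by
      rw [hx]; ext i j; by_cases hij : i = j
      · subst hij; simp
      · simp [hij]
    rw [h2, Matrix.smul_mul, hyc, Matrix.mul_smul, smul_smul, inv_mul_cancel₀ hc, one_smul]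
  have h3 := charpoly_of_conj (Matrix.SpecialLinearGroup.toGL P) h1
  rw [Matrix.charpoly_diagonal, Matrix.charpoly_map] at h3
  -- Frobenius
  set φ := iterateFrobenius F p f with hφ
  have hφ1 : ∀ b, φ b = b ^ q₀ := by intro b; rw [hφ, iterateFrobenius_def, hf]
  have h4 : (∏ i, (X - C (c⁻¹ * a i))) = ∏ i, (X - C ((c⁻¹ * a i) ^ q₀)) := by
    have h5 := congrArg (Polynomial.map φ) h3
    rw [Polynomial.map_map, Polynomial.map_prod] at h5
    have h6 : φ.comp F₀.subtype = F₀.subtype := by
      ext b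
      rw [RingHom.comp_apply, hφ1]
      exact (mem_subfield_iff_pow F₀ hF₀ _).mp b.2
    rw [h6] at h5
    rw [h3, ← h5]
    refine Finset.prod_congr rfl fun i _ => ?_
    rw [Polynomial.map_sub, Polynomial.map_X, Polynomial.map_C, hφ1]
  refine ⟨c⁻¹, inv_ne_zero hc, fun β => ?_⟩
  have h7 := mult_eq_of_prod h4 ((c⁻¹ * β) ^ q₀)
  have h8 : mult (fun i => c⁻¹ * a i) ((c⁻¹ * β) ^ q₀) = mult a ((c⁻¹ * β) ^ q₀ / c⁻¹) := by
    apply mult_congr
    intro i
    rw [eq_div_iff (inv_ne_zero hc), mul_comm]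
  have h9 : mult (fun i => (c⁻¹ * a i) ^ q₀) ((c⁻¹ * β) ^ q₀) = mult a β := by
    apply mult_congr
    intro i
    constructor
    · intro h
      rw [← hφ1, ← hφ1] at h
      exact mul_left_cancel₀ (inv_ne_zero hc) (φ.injective h)
    · intro h; rw [h]
  rw [← h9, ← h7, h8]

/-- Diagonal matrices of determinant one. -/
theorem exists_diag_sl {n : ℕ} (a : Fin n → F) (h : ∏ i, a i = 1) :
    ∃ x : Matrix.SpecialLinearGroup (Fin n) F, (x : Matrix (Fin n) (Fin n) F) = Matrix.diagonal a :=
  ⟨⟨Matrix.diagonal a, by rw [Matrix.det_diagonal, h]⟩, rfl⟩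

/-- If `y ^ r = 1` and `F` contains the `r`-th roots of unity, `y` is diagonalisable. -/
theorem exists_diagonal {ι : Type*} [Fintype ι] [DecidableEq ι] (y : Matrix ι ι F) (r : ℕ) (hr : (r : F) ≠ 0)
    (hsplit : (X ^ r - 1 : F[X]).Splits) (hy : y ^ r = 1) :
    ∃ (P : GL ι F) (a : ι → F), (∀ i, a i ^ r = 1) ∧ y * (P : Matrix ι ι F) = (P : Matrix ι ι F) * Matrix.diagonal a := by
  obtain ⟨d, g, e, P, hg, hann, hP⟩ := exists_rcf y
  have hy0 : aeval y (X ^ r - 1 : F[X]) = 0 := by
    rw [map_sub, map_pow, aeval_X, map_one, hy, sub_self]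
  have hdvd := (hann _).mp hy0
  have hsq : Squarefree (X ^ r - 1 : F[X]) := (X_pow_sub_one_separable_iff.mpr hr).squarefree
  have hne : (X ^ r - 1 : F[X]) ≠ 0 := hsq.ne_zero
  have hirr : ∀ i, Irreducible (g i) := by
    intro i
    obtain ⟨q, m, hq, hqirr, hm, hgi⟩ := hg i
    have hsq' : Squarefree (q ^ m) := hgi ▸ hsq.squarefree_of_dvd (hdvd i)
    have hm1 : m = 1 := by
      rcases (Nat.lt_or_ge m 2) with h | h
      · omega
      · exfalso
        have := hsq' q ((pow_two q ▸ pow_dvd_pow q h))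
        exact hqirr.not_isUnit this
    rw [hgi, hm1, pow_one]; exact hqirr
  have hdeg : ∀ i, (g i).natDegree = 1 := by
    intro i
    have := (hsplit.of_dvd hne (hdvd i))
    exact natDegree_eq_of_degree_eq_some (this.degree_eq_one_of_irreducible (hirr i))
  have hgi : ∀ i, g i = X - C (-(g i).coeff 0) := by
    intro i
    have h1 := (monic_of_pow (hg i)).eq_X_add_C (hdeg i)
    rw [map_neg, sub_neg_eq_add]
    exact h1
  let α : Fin d → F := fun i => -(g i).coeff 0
  refine ⟨P, fun j => α (e.symm j).1, ?_, ?_⟩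
  · intro j
    have h1 := hdvd (e.symm j).1
    rw [hgi, dvd_iff_isRoot] at h1
    simp only [IsRoot, eval_sub, eval_pow, eval_X, eval_one] at h1
    exact sub_eq_zero.mp h1
  · rw [hP]
    congr 1
    ext i j
    obtain ⟨⟨i, i'⟩, rfl⟩ := e.surjective i
    obtain ⟨⟨j, j'⟩, rfl⟩ := e.surjective j
    rw [Matrix.reindex_apply, Matrix.submatrix_apply, Equiv.symm_apply_apply, Equiv.symm_apply_apply]
    by_cases hij : i = j
    · subst hij
      have hi' : i' = j' := by
        apply Fin.ext
        have h1 := i'.2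
        have h2 := j'.2
        have h3 := hdeg i
        omega
      subst hi'
      rw [Matrix.blockDiagonal'_apply_eq, Matrix.diagonal_apply_eq, Equiv.symm_apply_apply]
      have h1 := i'.2
      have h3 := hdeg i
      have h0 : (i' : ℕ) = 0 := by omega
      simp [comp, h0, h3, α]
    · rw [Matrix.blockDiagonal'_apply_ne _ _ _ hij, Matrix.diagonal_apply_ne]
      intro h
      exact hij (congrArg Sigma.fst (e.injective h))

end Cfsg.Agent.H953
end

-- part: H953/Mult
section
set_option autoImplicit false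

namespace Cfsg.Agent.H953

open Polynomial

universe u

variable {F : Type u}

open Classical in
theorem mult_eq_sum {ι : Type*} [Fintype ι] (a : ι → F) (β : F) : mult a β = ∑ i, if a i = β then 1 else 0 := by
  unfold mult
  rw [Finset.card_filter]

open Classical in
theorem mult_cons {m : ℕ} (α : F) (a : Fin m → F) (β : F) :
    mult (Fin.cons α a : Fin (m + 1) → F) β = (if α = β then 1 else 0) + mult a β := by
  rw [mult_eq_sum, mult_eq_sum, Fin.sum_univ_succ]
  simp

open Classical in
theorem mult_const {m : ℕ} (δ β : F) : mult (fun _ : Fin m => δ) β = if δ = β then m else 0 := by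
  rw [mult_eq_sum]
  split_ifs with h <;> simp [h]

theorem prod_cons {m : ℕ} [CommMonoid F] (α : F) (a : Fin m → F) :
    ∏ i, (Fin.cons α a : Fin (m + 1) → F) i = α * ∏ i, a i := by
  rw [Fin.prod_univ_succ]
  simp

end Cfsg.Agent.H953
end
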