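/-
Elements preserving an alternating form up to a scalar: restrictions on eigenvalues and ranks.
-/
import Mathlib
import Cfsg.Prelude.Def_GeometricClasses
import Cfsg.Agent.H953.Sympl
import Cfsg.Agent.H953.Rank
import Cfsg.Agent.H953.Mult
set_option linter.all false

set_option autoImplicit false

namespace Cfsg.Agent.H953

open Cfsg.Geo Polynomial

variable {F : Type*} [Field F]

/-- `range (y - 1)` meets the fixed vectors trivially when `y ^ r = 1`, `r ≠ 0` in `F`. -/
theorem fixed_range_zero {ι : Type*} [Fintype ι] [DecidableEq ι] (y : Matrix ι ι F) (r : ℕ)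
    (hr : (r : F) ≠ 0) (hy : y ^ r = 1) (v : ι → F) (h : y.mulVec ((y - 1).mulVec v) = (y - 1).mulVec v) :
    (y - 1).mulVec v = 0 := by
  set w := (y - 1).mulVec v with hw
  have hs1 : (∑ l ∈ Finset.range r, y ^ l) * (y - 1) = 0 := by
    rw [geom_sum_mul, hy, sub_self]
  have hs2 : (∑ l ∈ Finset.range r, y ^ l).mulVec w = (r : F) • w := by
    have h3 : ∀ l : ℕ, (y ^ l).mulVec w = w := by
      intro l
      induction l with
      | zero => simp
      | succ l ih => rw [pow_succ, ← Matrix.mulVec_mulVec, h, ih]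
    rw [Matrix.sum_mulVec, Finset.sum_congr rfl (fun l _ => h3 l), Finset.sum_const, Finset.card_range]
    exact (Nat.cast_smul_eq_nsmul F r w).symm
  have hs3 : (∑ l ∈ Finset.range r, y ^ l).mulVec w = 0 := by
    rw [hw, Matrix.mulVec_mulVec, hs1, Matrix.zero_mulVec]
  rw [hs2] at hs3
  exact (smul_eq_zero.mp hs3).resolve_left hr

/-- A semisimple isometry of a symplectic form has even `rank (x - 1)`. -/
theorem even_rank {ι : Type} [Fintype ι] [DecidableEq ι] {f : (ι → F) → (ι → F) → F} (hf : IsSymplecticForm f)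
    (x : Matrix ι ι F) (r : ℕ) (hr0 : r ≠ 0) (hr : (r : F) ≠ 0) (hx : x ^ r = 1)
    (h : ∀ u v, f (x.mulVec u) (x.mulVec v) = f u v) : Even (x - 1).rank := by
  let W := LinearMap.range (x - 1).mulVecLin
  let B : LinearMap.BilinForm F W := (toBil hf).restrict W
  have hB : ∀ u v : W, B u v = f u.1 v.1 := fun u v => rfl
  have hsurj : ∀ v : ι → F, ∃ w, x.mulVec w = v := by
    intro v
    refine ⟨(x ^ (r - 1)).mulVec v, ?_⟩
    rw [Matrix.mulVec_mulVec, ← pow_succ', Nat.sub_add_cancel (Nat.pos_of_ne_zero hr0), hx, Matrix.one_mulVec]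
  have h1 := even_finrank_of_alt B (fun u => hf.alternating u.1) (by
    rintro ⟨u, hu⟩ hu0
    obtain ⟨v, hv⟩ := hu
    rw [Matrix.mulVecLin_apply] at hv
    apply Subtype.ext
    change u = 0
    have h2 : ∀ w, f u (x.mulVec w) = f u w := by
      intro w
      have h3 := hu0 ⟨(x - 1).mulVec w, ⟨w, rfl⟩⟩
      rw [hB] at h3
      change f u ((x - 1).mulVec w) = 0 at h3
      have h4 : x.mulVec w = (x - 1).mulVec w + w := by
        rw [Matrix.sub_mulVec, Matrix.one_mulVec, sub_add_cancel]
      rw [h4, hf.bilinear.add_right, h3, zero_add]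
    have h5 : x.mulVec u = u := by
      by_contra hne
      have hne' : x.mulVec u - u ≠ 0 := sub_ne_zero.mpr hne
      obtain ⟨-, w, hw⟩ := hf.nondegenerate _ hne'
      obtain ⟨w', rfl⟩ := hsurj w
      apply hw
      have h6 : f (x.mulVec u - u) (x.mulVec w') = f (x.mulVec u) (x.mulVec w') - f u (x.mulVec w') := by
        have h7 := (toBil hf).map_sub₂ (x.mulVec u) u (x.mulVec w')
        exact h7
      rw [h6, h, h2, sub_self]
    rw [← hv]
    apply fixed_range_zero x r hr hx
    rw [hv, h5])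
  exact h1

/-- The scalar of a similarity of finite order. -/
theorem scalar_pow {ι : Type} [Fintype ι] [DecidableEq ι] [Nonempty ι] {f : (ι → F) → (ι → F) → F}
    (hf : IsSymplecticForm f) (x : Matrix ι ι F) (r : ℕ) (hx : x ^ r = 1) (c : F)
    (h : ∀ u v, f (x.mulVec u) (x.mulVec v) = c * f u v) : c ^ r = 1 := by
  have h1 : ∀ (l : ℕ) u v, f ((x ^ l).mulVec u) ((x ^ l).mulVec v) = c ^ l * f u v := by
    intro l
    induction l with
    | zero => intro u v; simp
    | succ l ih =>
      intro u v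
      rw [pow_succ, ← Matrix.mulVec_mulVec, ← Matrix.mulVec_mulVec, ih, h, pow_succ]
      ring
  obtain ⟨i⟩ := ‹Nonempty ι›
  have hne : (Pi.single i (1 : F) : ι → F) ≠ 0 := by
    intro h0
    have := congrFun h0 i
    rw [Pi.single_eq_same] at this
    exact one_ne_zero this
  obtain ⟨-, v, hv⟩ := hf.nondegenerate _ hne
  have h2 := h1 r (Pi.single i 1) v
  rw [hx, Matrix.one_mulVec, Matrix.one_mulVec] at h2
  have h3 : (c ^ r - 1) * f (Pi.single i 1) v = 0 := by rw [sub_mul, one_mul, ← h2, sub_self]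
  exact sub_eq_zero.mp ((mul_eq_zero.mp h3).resolve_right hv)

/-- Eigenvalue multiplicities of a diagonal similarity. -/
theorem mult_sim {n : ℕ} {f : (Fin n → F) → (Fin n → F) → F} (hf : IsSymplecticForm f) (a : Fin n → F)
    (ha : ∀ i, a i ≠ 0) (c : F)
    (h : ∀ u v, f ((Matrix.diagonal a).mulVec u) ((Matrix.diagonal a).mulVec v) = c * f u v) :
    (∀ i j, a i * a j * f (Pi.single i 1) (Pi.single j 1) = c * f (Pi.single i 1) (Pi.single j 1)) ∧
    ∀ β, β ≠ 0 → mult a β = mult a (c / β) := by
  have h1 : ∀ i j, a i * a j * f (Pi.single i 1) (Pi.single j 1) = c * f (Pi.single i 1) (Pi.single j 1) := by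
    intro i j
    have h2 := h (Pi.single i 1) (Pi.single j 1)
    have h3 : ∀ i, (Matrix.diagonal a).mulVec (Pi.single i 1) = a i • (Pi.single i (1 : F)) := by
      intro i
      funext k
      rw [Matrix.mulVec_diagonal, Pi.smul_apply, smul_eq_mul]
      by_cases hk : k = i
      · subst hk; rfl
      · rw [Pi.single_eq_of_ne hk, mul_zero, mul_zero]
    rw [h3, h3, hf.bilinear.smul_left, hf.bilinear.smul_right] at h2
    rw [← h2]; ring
  refine ⟨h1, ?_⟩
  let A : Matrix (Fin n) (Fin n) F := Matrix.of fun i j => f (Pi.single i 1) (Pi.single j 1)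
  have hA : A.det ≠ 0 := by
    intro h0
    obtain ⟨v, hv0, hv⟩ := Matrix.exists_mulVec_eq_zero_iff.mpr h0
    obtain ⟨⟨u, hu⟩, -⟩ := hf.nondegenerate v hv0
    apply hu
    have h4 : ∀ i, f (Pi.single i 1) v = 0 := by
      intro i
      have h5 := congrFun hv i
      have h6 : (A.mulVec v) i = ∑ j, f (Pi.single i 1) (Pi.single j 1) * v j := rfl
      have h7 : f (Pi.single i 1) v = ∑ j, f (Pi.single i 1) (Pi.single j 1) * v j := by
        have h8 : v = ∑ j, v j • (Pi.single j (1 : F) : Fin n → F) := by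
          rw [← pi_eq_sum_univ']
        conv_lhs => rw [h8]
        rw [← toBil_apply hf, map_sum]
        refine Finset.sum_congr rfl fun j _ => ?_
        rw [map_smul, smul_eq_mul, mul_comm, toBil_apply]
      rw [h7, ← h6, h5]
      rfl
    have h8 : u = ∑ j, u j • (Pi.single j (1 : F) : Fin n → F) := by
      rw [← pi_eq_sum_univ']
    rw [h8, ← toBil_apply hf, map_sum, LinearMap.sum_apply]
    refine Finset.sum_eq_zero fun j _ => ?_
    rw [map_smul, LinearMap.smul_apply, toBil_apply, h4, smul_zero]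
  have h5 : Matrix.diagonal a * A = A * Matrix.diagonal (fun i => c / a i) := by
    ext i j
    rw [Matrix.diagonal_mul, Matrix.mul_diagonal]
    change a i * f (Pi.single i 1) (Pi.single j 1) = f (Pi.single i 1) (Pi.single j 1) * (c / a j)
    rw [mul_div_assoc', eq_div_iff (ha j), mul_comm (f _ _) c, ← h1]
    ring
  have h6 := charpoly_of_conj (Matrix.GeneralLinearGroup.mkOfDetNeZero A hA) h5
  rw [Matrix.charpoly_diagonal, Matrix.charpoly_diagonal] at h6
  intro β hβ
  rw [mult_eq_of_prod h6 β]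
  apply mult_congr
  intro i
  rw [div_eq_iff (ha i), eq_div_iff hβ, eq_comm, mul_comm]

end Cfsg.Agent.H953
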